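import Cfsg.Agent.Lib.Helper3.U62.Mat
import Cfsg.Agent.S0280

set_option autoImplicit false
set_option maxRecDepth 100000

namespace Cfsg.Agent.Lib.Helper3.U62

open Cfsg.Agent.Lib.Helper11 Cfsg.Agent.Lib.Helper3 Matrix

set_option maxHeartbeats 0

/-- the Frobenius map of `F4` -/
def frob : F4 →+* F4 where
  toFun x := x ^ 2
  map_one' := by decide
  map_mul' := by decide
  map_zero' := by decide
  map_add' := by decide

theorem detA : matA.det = 1 := by
  have h : matA * matA = 1 := by decide +kernel
  have h1 := congrArg Matrix.det h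
  rw [Matrix.det_mul, Matrix.det_one] at h1
  revert h1
  generalize matA.det = x
  revert x
  decide

theorem detB : matB.det = 1 := by
  have h2 : matB * matB = matB2 := by decide +kernel
  have h4 : matB2 * matB2 = matB4 := by decide +kernel
  have h6 : matB4 * matB2 = matB6 := by decide +kernel
  have h7 : matB6 * matB = 1 := by decide +kernel
  have h1 := congrArg Matrix.det h7
  rw [← h6, ← h4, ← h2] at h1
  simp only [Matrix.det_mul, Matrix.det_one] at h1
  revert h1
  generalize matB.det = x
  revert x
  decide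

theorem uniA : matAᵀ * matA.map frob = 1 := by decide +kernel
theorem uniB : matBᵀ * matB.map frob = 1 := by decide +kernel

/-- the generators in the special unitary group -/
def gA : Cfsg.SU 6 F4 2 := ⟨⟨matA, detA⟩, fun u v => herm_preserved 6 2 frob (fun _ => rfl) matA uniA u v⟩
def gB : Cfsg.SU 6 F4 2 := ⟨⟨matB, detB⟩, fun u v => herm_preserved 6 2 frob (fun _ => rfl) matB uniB u v⟩

/-- the matrix of an element -/
def TT : Cfsg.SU 6 F4 2 →* Matrix (Fin 6) (Fin 6) F4 :=
  (Cfsg.slToMat 6 F4).comp (Cfsg.SU 6 F4 2).subtype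

theorem TT_inj : Function.Injective TT := by
  intro x y h
  apply Subtype.ext
  apply Matrix.SpecialLinearGroup.ext
  intro i j
  exact congrFun (congrFun h i) j

/-- the valuation -/
def vM (l : ℕ) : Cfsg.SU 6 F4 2 := if l = 1 then gA else if l = 2 then gB else 1

theorem card_psu : Nat.card (Cfsg.PSU 6 F4 2) = 9196830720 := by
  have h := Cfsg.Agent.S0280.result (F := F4) (q := 2) (by rfl) 6 (by norm_num)
  have h2 : (∏ i ∈ Finset.range 6, (if Even i then 2 ^ (i + 1) + 1 else 2 ^ (i + 1) - 1)) = 2525985 := by
    decide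
  rw [h2] at h
  norm_num at h
  omega

theorem psu_iso : Nonempty (Cfsg.PSU 6 F4 2 ≃* lgrp (vL ntl deg) [1, 2]) := by
  apply quot_iso_of_graph (projGraph TT (fun i : Fin 693 => pt i)) (Subgroup.center (Cfsg.SU 6 F4 2))
    _ vM (vL ntl deg) [1, 2] _ simple 9196830720 card_eq card_psu (by norm_num)
  · refine ⟨1, by simp, ?_⟩
    intro h
    have h1 := (Subgroup.mem_center_iff.1 h) gB
    have h2 : matB * matA = matA * matB := congrArg TT h1
    revert h2
    decide +kernel
  · intro g hg
    obtain ⟨c0, hc⟩ := scalar_of_projGraph TT (fun i : Fin 693 => pt i) frB frI frInv frA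
      (by decide +kernel) (by decide) (by decide +kernel) g hg
    exact mem_center_of_scalar TT TT_inj g c0 hc
  · intro x hx
    simp only [List.mem_cons, List.mem_nil_iff, or_false] at hx
    rcases hx with rfl | rfl
    · exact setup.mem_projGraph_of_chk TT gA matA rfl pt _ _ 1 chk1
    · exact setup.mem_projGraph_of_chk TT gB matB rfl pt _ _ 2 chk2

end Cfsg.Agent.Lib.Helper3.U62
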