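import Cfsg.Agent.Lib.Helper3.U62.Fi22D
import Cfsg.Agent.Lib.Helper3.U62.Iso
import Cfsg.Agent.Lib.Helper11.Cover

set_option autoImplicit false
set_option maxRecDepth 100000

namespace Cfsg.Agent.Lib.Helper3.U62

open Cfsg.Agent.Lib.Helper11 Cfsg.Agent.Lib.Helper3 Cfsg.Spor Cfsg.Spor.Fi22

set_option maxHeartbeats 0

theorem psi_inj : Function.Injective Fi22o.psi :=
  inj_of_stabL_bot Fi22o.psi _ (Fi22o.order Cfsg.Agent.S1696.card_le).2

theorem memH (ex : WExp) (he : ex ∈ Fi22o.hExps) :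
    mk22 (ex.eval (fun l => Fi22o.LTFm.getD l 1)) ∈ HH :=
  Subgroup.mem_map_of_mem _ (Subgroup.subset_closure (Fi22o.hS2 ex he))

theorem eq_one_of_wordId (ex : WExp)
    (h : wordId (ntOf Fi22o.ntl) 12 (ex.letters Fi22o.INVm) = true) :
    mk22 (ex.eval (fun l => Fi22o.LTFm.getD l 1)) = 1 := by
  apply psi_inj
  rw [Fi22o.psi_eval, map_one]
  exact wordId_spec _ 12 (ntOf_ok Fi22o.ntl _ Fi22o.netsOK) _ h

theorem cardH : Nat.card HH = 2 * 9196830720 := by
  have h1 := Cfsg.Agent.S1687.result.1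
  have h2 := Cfsg.Agent.S1696.result.2
  have h3 := HH.card_mul_index
  rw [h2] at h3
  have h4 : HH.index = 3510 := h1
  rw [h4] at h3
  omega

theorem cover : Cfsg.IsNonsplitDoubleCover HH (lgrp (vL ntl deg) [1, 2]) := by
  have hfin : Finite HH := Nat.finite_of_card_ne_zero (by rw [cardH]; norm_num)
  have hv1 : vG 1 = mk22 (e1.eval (fun l => Fi22o.LTFm.getD l 1)) := by simp [vG]
  have hv2 : vG 2 = mk22 (e2.eval (fun l => Fi22o.LTFm.getD l 1)) := by simp [vG]
  apply doubleCover_of_graph (ptGraph Fi22o.psi (fun i : Fin 693 => tb PTH 12 i))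
    (ptGraph_fun _ _ (inj_of_leftInv 693 _ (tb BK 10) bkOK)) vG (vL ntl deg) _ HH _
    9196830720 card_eq cardH simple _ (mk22 ((WExp.l 1).eval (fun l => Fi22o.LTFm.getD l 1))) _ zr
    (by decide) _ (setup.rel_of_wordId zr zOK2) 3 5
  · rw [hv2]
    have := eq_one_of_wordId _ uOK
    simpa [WExp.eval] using this
  · rw [hv1, hv2]
    have := eq_one_of_wordId _ wOK
    simpa [WExp.eval] using this
  · intro x hx
    simp only [List.mem_cons, List.mem_nil_iff, or_false] at hx
    rcases hx with rfl | rfl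
    · rw [hv1]
      exact setup.mem_ptGraph_of_chk Fi22o.psi (ntOf Fi22o.ntl) _ (ntOf_ok Fi22o.ntl _ Fi22o.netsOK)
        _ _ (Fi22o.psi_eval e1) _ _ 1 pchk1
    · rw [hv2]
      exact setup.mem_ptGraph_of_chk Fi22o.psi (ntOf Fi22o.ntl) _ (ntOf_ok Fi22o.ntl _ Fi22o.netsOK)
        _ _ (Fi22o.psi_eval e2) _ _ 2 pchk2
  · intro x hx
    simp only [List.mem_cons, List.mem_nil_iff, or_false] at hx
    rcases hx with rfl | rfl
    · rw [hv1]
      exact memH e1 (by simp [e1, Fi22o.hExps])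
    · rw [hv2]
      simp only [e2, WExp.eval, map_mul]
      have hx : mk22 (xE.eval (fun l => Fi22o.LTFm.getD l 1)) ∈ HH :=
        memH xE (by simp [xE, Fi22o.hExps])
      have h4 := memH (.l 4) (by simp [Fi22o.hExps])
      have h5 := memH (.l 5) (by simp [Fi22o.hExps])
      have h6 := memH (.l 6) (by simp [Fi22o.hExps])
      have h7 := memH (.l 7) (by simp [Fi22o.hExps])
      have h8 := memH (.l 8) (by simp [Fi22o.hExps])
      have h9 := memH (.l 9) (by simp [Fi22o.hExps])
      simp only [WExp.eval] at h4 h5 h6 h7 h8 h9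
      repeat' apply Subgroup.mul_mem
      all_goals assumption
  · intro h
    have h1 := word_apply_of_bits _ setup.hok setup.hst [1, 2] 0 32 (by norm_num [deg])
      (by norm_num [deg]) nc1
    have h2 := word_apply_of_bits _ setup.hok setup.hst [2, 1] 0 168 (by norm_num [deg])
      (by norm_num [deg]) nc2
    simp only [List.map_cons, List.map_nil, List.prod_cons, List.prod_nil, mul_one] at h1 h2
    rw [h, h2] at h1
    have := congrArg Fin.val h1
    simp at this
  · intro h
    have h1 := congrArg Fi22o.psi h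
    rw [Fi22o.psi_eval, map_one] at h1
    have h2 := mapChk_spec _ (ntOf Fi22o.ntl) (ntOf_ok Fi22o.ntl _ Fi22o.netsOK) _ _ _ aNe
    have h3 : (WExp.l 1).letters Fi22o.INVm = [1] := rfl
    rw [h3] at h1
    rw [h1] at h2
    simp at h2
  · have h1 : mk22 (zE.eval (fun l => Fi22o.LTFm.getD l 1)) =
        mk22 ((WExp.l 1).eval (fun l => Fi22o.LTFm.getD l 1)) := by
      apply psi_inj
      rw [Fi22o.psi_eval, Fi22o.psi_eval]
      exact wordEq_spec _ 12 (ntOf_ok Fi22o.ntl _ Fi22o.netsOK) _ _ zOK1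
    rw [← h1]
    simp only [zE, WExp.eval, map_pow, map_mul, ← hv1, ← hv2]
    simp only [zr, List.map_cons, List.map_nil, List.prod_cons, List.prod_nil, mul_one]
    simp only [pow_succ, pow_zero, one_mul, mul_assoc]

theorem cover_psu : Cfsg.IsNonsplitDoubleCover HH (Cfsg.PSU 6 F4 2) := by
  obtain ⟨e⟩ := psu_iso
  exact nonsplitDoubleCover_congr_right e.symm cover

end Cfsg.Agent.Lib.Helper3.U62
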