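import Mathlib

set_option autoImplicit false
set_option maxRecDepth 100000

namespace Cfsg.Agent.Lib.Helper3.U62.L5

noncomputable def fc0_0 (i : ℕ) : ℕ := (nat_lit 0x50000900000040000b00000030000af00000500006f00000200008f00000400004f00000100007000000300003000000000005000000200001000000000002f00000100000f)
noncomputable def sc0_0 (i : ℕ) : ℕ := (nat_lit 0x1000005000009000006000002000500010000ffff0000ffff0000ffff0000ffff0000ffff)
noncomputable def nc0_0 (i : ℕ) : ℕ := (nat_lit 0x5000004000003000002000001000000)
noncomputable def cc0_0 (i : ℕ) : ℕ := (nat_lit 0x400000b00000300000800000500000a000002000006000001000004000005000009000000000002000004000007000003000005000000000000000002000003000001000001)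

end Cfsg.Agent.Lib.Helper3.U62.L5
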